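import Cfsg.Agent.Chars.Fi22O7.P7.Data

/-!
# Checking the facts
-/

set_option autoImplicit false
set_option maxRecDepth 20000

namespace Cfsg.Agent.Chars.Fi22O7.P7

open Cfsg.Agent.Screen.CosetEnum

set_option Elab.async false

theorem fcheck0 : blocks tbl.toCert 56 0 = true := by decide +kernel


end Cfsg.Agent.Chars.Fi22O7.P7
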